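import Mathlib
import Cfsg.Agent.Lib.Helper71.JC.JCFour
import Cfsg.Agent.Lib.Helper11.ThompsonSylow

/-!
Kurzweil–Stellmacher chapter 12 cluster, statement S2944 (helper54): elementwise lemmas on
the action (by conjugation) of elements normalizing a four-group `W`, and a few general group
lemmas.
-/

set_option autoImplicit false

namespace Cfsg.Agent.Lib.Helper54.KS12

open Cfsg.Agent.Lib.Helper71.JC

universe u
variable {G : Type u} [Group G]

/-- A four-group has an element different from `1` and from a given `u`. -/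
theorem exists_third {W : Subgroup G} (hW4 : Nat.card W = 4) (u : G) :
    ∃ w ∈ W, w ≠ 1 ∧ w ≠ u := by
  classical
  by_contra hcon
  push Not at hcon
  have hfin : Finite W := Nat.finite_of_card_ne_zero (by omega)
  have hinj : Function.Injective (fun w : W => decide ((w : G) = 1)) := by
    intro a b hab
    by_cases ha : (a : G) = 1
    · have hb : (b : G) = 1 := by
        by_contra hb
        simp [ha, hb] at hab
      exact Subtype.ext (ha.trans hb.symm)
    · have hb : (b : G) ≠ 1 := by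
        intro hb
        simp [ha, hb] at hab
      exact Subtype.ext ((hcon a a.2 ha).trans (hcon b b.2 hb).symm)
  have h := Nat.card_le_card_of_injective _ hinj
  rw [hW4, Nat.card_eq_fintype_card, Fintype.card_bool] at h
  omega

/-- An element normalizing the four-group `W` and fixing `u₀ ∈ W`, `u₀ ≠ 1`, either centralizes
`W` or maps every `w ∉ {1, u₀}` to `w u₀`. -/
theorem fix_struct {W : Subgroup G} (hW4 : Nat.card W = 4) (hW2 : ∀ w ∈ W, w * w = 1)
    {y u₀ : G} (hy : y ∈ Subgroup.normalizer (W : Set G)) (hu : u₀ ∈ W) (hu1 : u₀ ≠ 1)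
    (hfix : y * u₀ * y⁻¹ = u₀) :
    (∀ w ∈ W, y * w * y⁻¹ = w) ∨ (∀ w ∈ W, w ≠ 1 → w ≠ u₀ → y * w * y⁻¹ = w * u₀) := by
  obtain ⟨w₁, hw₁, hw₁1, hw₁u⟩ := exists_third hW4 u₀
  have hw₂ : w₁ * u₀ ∈ W := W.mul_mem hw₁ hu
  have hw₂1 : w₁ * u₀ ≠ 1 := by
    intro h
    apply hw₁u
    have h1 : w₁ = u₀⁻¹ := eq_inv_of_mul_eq_one_left h
    rw [h1, inv_eq_self_of_sq (hW2 u₀ hu)]
  have hw₂u : w₁ * u₀ ≠ u₀ := by
    intro h
    apply hw₁1
    have : w₁ * u₀ = 1 * u₀ := by rw [h, one_mul]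
    exact mul_right_cancel this
  have hw₂w : w₁ * u₀ ≠ w₁ := by
    intro h
    apply hu1
    have : w₁ * u₀ = w₁ * 1 := by rw [h, mul_one]
    exact mul_left_cancel this
  have henum := four_enum hW4 hu hw₁ hw₂ hu1 hw₁1 hw₂1 (Ne.symm hw₁u) (Ne.symm hw₂u)
    (Ne.symm hw₂w)
  have hyw : y * w₁ * y⁻¹ ∈ W := conj_mem_of_mem_normalizer hy hw₁
  have hmul : y * (w₁ * u₀) * y⁻¹ = (y * w₁ * y⁻¹) * u₀ := by
    calc y * (w₁ * u₀) * y⁻¹ = (y * w₁ * y⁻¹) * (y * u₀ * y⁻¹) := by group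
      _ = _ := by rw [hfix]
  have hback : w₁ = y⁻¹ * (y * w₁ * y⁻¹) * y := by group
  rcases henum _ hyw with h | h | h | h
  · exfalso; apply hw₁1
    rw [hback, h]; group
  · exfalso; apply hw₁u
    have h2 : y⁻¹ * u₀ * y = u₀ := by
      have h3 : y⁻¹ * (y * u₀ * y⁻¹) * y = u₀ := by group
      rwa [hfix] at h3
    rw [hback, h, h2]
  · left
    intro w hw
    rcases henum w hw with h' | h' | h' | h'
    · rw [h']; group
    · rw [h']; exact hfix
    · rw [h']; exact h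
    · rw [h', hmul, h]
  · right
    intro w hw hw1 hwu
    rcases henum w hw with h' | h' | h' | h'
    · exact absurd h' hw1
    · exact absurd h' hwu
    · rw [h']; exact h
    · rw [h', hmul, h]

/-- Two elements normalizing the four-group `W`, fixing the same `u₀ ∈ W`, `u₀ ≠ 1`, and not
centralizing `W`, act in the same way on `W`. -/
theorem fix_same {W : Subgroup G} (hW4 : Nat.card W = 4) (hW2 : ∀ w ∈ W, w * w = 1)
    {y y' u₀ : G} (hy : y ∈ Subgroup.normalizer (W : Set G))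
    (hy' : y' ∈ Subgroup.normalizer (W : Set G)) (hu : u₀ ∈ W) (hu1 : u₀ ≠ 1)
    (hfix : y * u₀ * y⁻¹ = u₀) (hfix' : y' * u₀ * y'⁻¹ = u₀)
    (hn : ¬ ∀ w ∈ W, y * w * y⁻¹ = w) (hn' : ¬ ∀ w ∈ W, y' * w * y'⁻¹ = w) :
    ∀ w ∈ W, y * w * y⁻¹ = y' * w * y'⁻¹ := by
  rcases fix_struct hW4 hW2 hy hu hu1 hfix with h | h
  · exact absurd h hn
  rcases fix_struct hW4 hW2 hy' hu hu1 hfix' with h' | h'
  · exact absurd h' hn'
  intro w hw
  by_cases hw1 : w = 1
  · rw [hw1]; group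
  by_cases hwu : w = u₀
  · rw [hwu, hfix, hfix']
  rw [h w hw hw1 hwu, h' w hw hw1 hwu]

/-- If `d` and `d²` act fixed-point-freely on the four-group `W`, then `⟨d⟩` is transitive on
`W \ {1}`. -/
theorem orbit3 {W : Subgroup G} (hW4 : Nat.card W = 4) {d : G}
    (hd : d ∈ Subgroup.normalizer (W : Set G))
    (hfp : ∀ w ∈ W, d * w * d⁻¹ = w → w = 1)
    (hfp2 : ∀ w ∈ W, (d * d) * w * (d * d)⁻¹ = w → w = 1)
    {u u' : G} (hu : u ∈ W) (hu1 : u ≠ 1) (hu' : u' ∈ W) (hu'1 : u' ≠ 1) :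
    u' = u ∨ u' = d * u * d⁻¹ ∨ u' = (d * d) * u * (d * d)⁻¹ := by
  have h1 : d * u * d⁻¹ ∈ W := conj_mem_of_mem_normalizer hd hu
  have h2 : (d * d) * u * (d * d)⁻¹ ∈ W :=
    conj_mem_of_mem_normalizer (Subgroup.mul_mem _ hd hd) hu
  have n1 : d * u * d⁻¹ ≠ 1 := by
    intro h
    apply hu1
    have : u = d⁻¹ * (d * u * d⁻¹) * d := by group
    rw [this, h]; group
  have n2 : (d * d) * u * (d * d)⁻¹ ≠ 1 := by
    intro h
    apply hu1
    have : u = (d * d)⁻¹ * ((d * d) * u * (d * d)⁻¹) * (d * d) := by group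
    rw [this, h]; group
  have n12 : u ≠ d * u * d⁻¹ := fun h => hu1 (hfp u hu h.symm)
  have n13 : u ≠ (d * d) * u * (d * d)⁻¹ := fun h => hu1 (hfp2 u hu h.symm)
  have n23 : d * u * d⁻¹ ≠ (d * d) * u * (d * d)⁻¹ := by
    intro h
    apply hu1
    apply hfp u hu
    have h3 : d * u * d⁻¹ = d⁻¹ * ((d * d) * u * (d * d)⁻¹) * d := by group
    rw [h3, ← h]; group
  rcases four_enum hW4 hu h1 h2 hu1 n1 n2 n12 n13 n23 u' hu' with h | h | h | h
  · exact absurd h hu'1
  · left; exact h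
  · right; left; exact h
  · right; right; exact h

/-- An element normalizing the four-group `W` whose square centralizes `W` fixes a non-trivial
element of `W`. -/
theorem exists_fix {W : Subgroup G} (hW4 : Nat.card W = 4) (hW2 : ∀ w ∈ W, w * w = 1)
    (hWc : ∀ w ∈ W, ∀ w' ∈ W, w * w' = w' * w) {y : G}
    (hy : y ∈ Subgroup.normalizer (W : Set G))
    (hy2 : ∀ w ∈ W, y * (y * w * y⁻¹) * y⁻¹ = w) :
    ∃ u₀ ∈ W, u₀ ≠ 1 ∧ y * u₀ * y⁻¹ = u₀ := by
  obtain ⟨w, hw, hw1, -⟩ := exists_third hW4 (1 : G)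
  by_cases hf : y * w * y⁻¹ = w
  · exact ⟨w, hw, hw1, hf⟩
  have hw' : y * w * y⁻¹ ∈ W := conj_mem_of_mem_normalizer hy hw
  refine ⟨w * (y * w * y⁻¹), W.mul_mem hw hw', ?_, ?_⟩
  · intro h
    apply hf
    have h2 : y * w * y⁻¹ = w⁻¹ := (inv_eq_of_mul_eq_one_right h).symm
    rw [h2, inv_eq_self_of_sq (hW2 w hw)]
  · calc y * (w * (y * w * y⁻¹)) * y⁻¹ = (y * w * y⁻¹) * (y * (y * w * y⁻¹) * y⁻¹) := by group
      _ = (y * w * y⁻¹) * w := by rw [hy2 w hw]
      _ = w * (y * w * y⁻¹) := hWc _ hw' _ hw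

/-- `g ∈ C(W)` iff conjugation by `g` fixes every element of `W`. -/
theorem mem_centralizer_iff_conj {W : Subgroup G} {g : G} :
    g ∈ Subgroup.centralizer (W : Set G) ↔ ∀ w ∈ W, g * w * g⁻¹ = w := by
  rw [Subgroup.mem_centralizer_iff]
  constructor
  · intro h w hw
    exact conj_eq_iff_comm_aux.mpr (h w hw)
  · intro h w hw
    exact conj_eq_iff_comm_aux.mp (h w hw)
where
  conj_eq_iff_comm_aux {x w : G} : x * w * x⁻¹ = w ↔ w * x = x * w := by
    constructor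
    · intro h
      calc w * x = (x * w * x⁻¹) * x := by rw [h]
        _ = x * w := by group
    · intro h
      calc x * w * x⁻¹ = (w * x) * x⁻¹ := by rw [h]
        _ = w := by group

/-- In a finite group, `g K g⁻¹ ≤ K` forces `g ∈ N(K)`. -/
theorem mem_normalizer_of_conj_le [Finite G] {K : Subgroup G} {g : G}
    (h : ∀ k ∈ K, g * k * g⁻¹ ∈ K) : g ∈ Subgroup.normalizer (K : Set G) := by
  have hle : K.map (MulAut.conj g).toMonoidHom ≤ K := by
    rintro _ ⟨k, hk, rfl⟩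
    exact h k hk
  have hcard : Nat.card (K.map (MulAut.conj g).toMonoidHom) = Nat.card K :=
    Subgroup.card_map_of_injective (MulAut.conj g).injective
  have heq := Subgroup.eq_of_le_of_card_ge hle hcard.ge
  exact Cfsg.Agent.Lib.Helper11.mem_normalizer_of_map_conj_eq heq

/-- An element of odd order in a 2-group is trivial. -/
theorem eq_one_of_odd_of_isPGroup {P : Subgroup G} (hP : IsPGroup 2 P) {g : G} (hg : g ∈ P)
    (hodd : Odd (orderOf g)) : g = 1 := by
  obtain ⟨k, hk⟩ := hP ⟨g, hg⟩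
  have hk' : g ^ (2 ^ k) = 1 := by simpa [Subtype.ext_iff] using hk
  have hdvd := orderOf_dvd_of_pow_eq_one hk'
  obtain ⟨j, -, hj⟩ := (Nat.dvd_prime_pow Nat.prime_two).mp hdvd
  rcases Nat.eq_zero_or_pos j with h0 | hpos
  · rw [h0, pow_zero] at hj
    exact orderOf_eq_one_iff.mp hj
  · exfalso
    rw [hj] at hodd
    exact (Nat.not_even_iff_odd.mpr hodd) (Nat.even_pow.mpr ⟨even_two, hpos.ne'⟩)

/-- `c ^ |C : Q| ∈ Q` for `c ∈ C`, `Q` normal in `C`. -/
theorem pow_relIndex_mem {Q C : Subgroup G} (hQC : Q ≤ C)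
    (hCQ : C ≤ Subgroup.normalizer (Q : Set G)) {c : G} (hc : c ∈ C) :
    c ^ (Q.relIndex C) ∈ Q := by
  have hn : (Q.subgroupOf C).Normal :=
    (Subgroup.normal_subgroupOf_iff_le_normalizer hQC).mpr hCQ
  have h3 : ((QuotientGroup.mk' (Q.subgroupOf C)) ⟨c, hc⟩) ^ (Q.relIndex C) = 1 :=
    pow_card_eq_one' (G := ↥C ⧸ Q.subgroupOf C)
      (x := (QuotientGroup.mk' (Q.subgroupOf C)) ⟨c, hc⟩)
  rw [← map_pow] at h3
  have h2 := (QuotientGroup.eq_one_iff _).mp h3
  have h5 := Subgroup.mem_subgroupOf.mp h2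
  simpa using h5

/-- If `C` is normal in `D` and every square of an element of `D` lies in `C`, then `|D : C|` is
a power of 2. -/
theorem relIndex_two_pow_of_sq [Finite G] {C D : Subgroup G} (hCD : C ≤ D)
    (hDC : D ≤ Subgroup.normalizer (C : Set G)) (hsq : ∀ g ∈ D, g * g ∈ C) :
    ∃ k : ℕ, C.relIndex D = 2 ^ k := by
  have : Fact (Nat.Prime 2) := ⟨Nat.prime_two⟩
  have hn : (C.subgroupOf D).Normal :=
    (Subgroup.normal_subgroupOf_iff_le_normalizer hCD).mpr hDC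
  have hp : IsPGroup 2 (↥D ⧸ C.subgroupOf D) := by
    intro q
    obtain ⟨g, rfl⟩ := QuotientGroup.mk'_surjective _ q
    refine ⟨1, ?_⟩
    rw [pow_one, ← map_pow, QuotientGroup.mk'_apply, QuotientGroup.eq_one_iff,
      Subgroup.mem_subgroupOf]
    have := hsq g g.2
    simpa [pow_two] using this
  obtain ⟨k, hk⟩ := IsPGroup.iff_card.mp hp
  exact ⟨k, hk⟩

end Cfsg.Agent.Lib.Helper54.KS12
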