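import Mathlib
import Cfsg.Agent.Lib.Helper54.KS12.S3Act
import Cfsg.Agent.Lib.Helper71.JC.JCCfg
import Cfsg.Agent.Lib.Helper67.KS12.S2942Core

/-!
Kurzweil–Stellmacher chapter 12 cluster, statement S2944 (helper54): the key lemma.

`K` a `J`-component (abstract configuration `Cfg` of helper71), `Q` a normal 2-subgroup and `C` a
normal subgroup with `C / Q` of odd order, both normalizing `K` and centralizing `W`.  If `m`
centralizes `W`, `[K, m] ⊆ C`, and there is `u ∉ C(W)` with `u² ∈ C(W)`, `[C, u] ⊆ Q`, normalizing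
both `K` and `m K m⁻¹`, then `m K m⁻¹ ≤ K`.
-/

set_option autoImplicit false

namespace Cfsg.Agent.Lib.Helper54.KS12

open Cfsg.Agent.Lib.Helper71.JC

universe u
variable {G : Type u} [Group G]

/-- An element `u ∉ C(W)` with `u² ∈ C(W)` normalizing `K` inverts `K / R`. -/
theorem inv_mod_R {K J R W S₀ : Subgroup G} (c : Cfg K J R W S₀)
    (hNR : Subgroup.normalizer (K : Set G) ≤ Subgroup.normalizer (R : Set G))
    {u : G} (huNW : u ∈ Subgroup.normalizer (W : Set G))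
    (huW : u ∉ Subgroup.centralizer (W : Set G))
    (hu2 : ∀ w ∈ W, u * (u * w * u⁻¹) * u⁻¹ = w)
    (huK : u ∈ Subgroup.normalizer (K : Set G)) {d : G} (hd : d ∈ K) (hdR : d ∉ R) :
    u * d * u⁻¹ * d ∈ R := by
  obtain ⟨hd3, hdec⟩ := q3 c.hRK c.hKR c.hidx hd hdR
  have hudK : u * d * u⁻¹ ∈ K := conj_mem_of_mem_normalizer huK hd
  obtain ⟨i, r, hr, hir⟩ := hdec _ hudK
  have hpow : ∃ j < 3, ∃ r' ∈ R, d ^ i = d ^ j * r' := by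
    refine ⟨i % 3, Nat.mod_lt _ (by norm_num), (d ^ 3) ^ (i / 3), R.pow_mem hd3 _, ?_⟩
    rw [← pow_mul, ← pow_add, Nat.mod_add_div]
  obtain ⟨j, hj, r', hr', hjr⟩ := hpow
  have hudj : u * d * u⁻¹ = d ^ j * (r' * r) := by rw [hir, hjr, mul_assoc]
  have hrr : r' * r ∈ R := R.mul_mem hr' hr
  interval_cases j
  · exfalso; apply hdR
    have h1 : u * d * u⁻¹ ∈ R := by rw [hudj, pow_zero, one_mul]; exact hrr
    have h2 := conj_inv_mem_of_mem_normalizer (hNR huK) h1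
    have h3 : u⁻¹ * (u * d * u⁻¹) * u = d := by group
    rwa [h3] at h2
  · exfalso
    rw [pow_one] at hudj
    obtain ⟨u₀, hu₀, hu₀1, hu₀f⟩ := exists_fix c.hW4 c.hW2 c.Wcomm huNW hu2
    have hdW : d ∈ Subgroup.normalizer (W : Set G) := c.hKW hd
    have hw : d * u₀ * d⁻¹ ∈ W := conj_mem_of_mem_normalizer hdW hu₀
    have hw1 : d * u₀ * d⁻¹ ≠ 1 := by
      intro h
      apply hu₀1
      have : u₀ = d⁻¹ * (d * u₀ * d⁻¹) * d := by group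
      rw [this, h]; group
    have hwu : d * u₀ * d⁻¹ ≠ u₀ := fun h => hu₀1 (c.hfp d hd hdR u₀ hu₀ h)
    have hrc : (r' * r) * u₀ * (r' * r)⁻¹ = u₀ := by
      have := c.hWZ u₀ hu₀ (r' * r) hrr
      rw [← this]; group
    have hfix2 : u * (d * u₀ * d⁻¹) * u⁻¹ = d * u₀ * d⁻¹ := by
      calc u * (d * u₀ * d⁻¹) * u⁻¹
          = (u * d * u⁻¹) * (u * u₀ * u⁻¹) * (u * d * u⁻¹)⁻¹ := by group
        _ = (d * (r' * r)) * u₀ * (d * (r' * r))⁻¹ := by rw [hudj, hu₀f]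
        _ = d * ((r' * r) * u₀ * (r' * r)⁻¹) * d⁻¹ := by group
        _ = d * u₀ * d⁻¹ := by rw [hrc]
    rcases fix_struct c.hW4 c.hW2 huNW hu₀ hu₀1 hu₀f with h | h
    · exact huW (mem_centralizer_iff_conj.mpr h)
    · have h1 := h _ hw hw1 hwu
      rw [hfix2] at h1
      apply hu₀1
      have : d * u₀ * d⁻¹ * 1 = d * u₀ * d⁻¹ * u₀ := by rw [mul_one]; exact h1
      exact (mul_left_cancel this).symm
  · have h1 : u * d * u⁻¹ * d = d ^ 3 * (d⁻¹ * (r' * r) * d) := by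
      rw [hudj]; group
    rw [h1]
    exact R.mul_mem hd3 (conj_inv_mem_of_mem_normalizer (c.hKR hd) hrr)

/-- **Key lemma.** -/
theorem key_conj_mem {K J R W S₀ Q C : Subgroup G} (c : Cfg K J R W S₀)
    (hgen : Subgroup.closure {g : G | g ∈ K ∧ Odd (orderOf g)} = K)
    (hNR : Subgroup.normalizer (K : Set G) ≤ Subgroup.normalizer (R : Set G))
    (hRQ : R ≤ Q) (hQ2 : IsPGroup 2 Q) (hKQ : K ≤ Subgroup.normalizer (Q : Set G))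
    (hQK : Q ≤ Subgroup.normalizer (K : Set G))
    (hCK : C ≤ Subgroup.normalizer (K : Set G)) (hCW : C ≤ Subgroup.centralizer (W : Set G))
    (hQC : Q ≤ C) (hCQ : C ≤ Subgroup.normalizer (Q : Set G)) (hodd : Odd (Q.relIndex C))
    {m : G} (hmQ : m ∈ Subgroup.normalizer (Q : Set G))
    (hmW : m ∈ Subgroup.centralizer (W : Set G))
    (hmK : ∀ k ∈ K, k⁻¹ * (m * k * m⁻¹) ∈ C)
    {u : G} (huNW : u ∈ Subgroup.normalizer (W : Set G))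
    (huW : u ∉ Subgroup.centralizer (W : Set G))
    (hu2 : ∀ w ∈ W, u * (u * w * u⁻¹) * u⁻¹ = w)
    (huC : ∀ c' ∈ C, u * c' * u⁻¹ * c'⁻¹ ∈ Q)
    (huK : u ∈ Subgroup.normalizer (K : Set G))
    (huK' : m⁻¹ * u * m ∈ Subgroup.normalizer (K : Set G)) :
    ∀ k ∈ K, m * k * m⁻¹ ∈ K := by
  have hm1 : ∀ w ∈ W, m * w * m⁻¹ = w := mem_centralizer_iff_conj.mp hmW
  have hm2 : ∀ w ∈ W, m⁻¹ * w * m = w := by
    intro w hw
    have := hm1 w hw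
    calc m⁻¹ * w * m = m⁻¹ * (m * w * m⁻¹) * m := by rw [this]
      _ = w := by group
  have hmain : ∀ d₁ ∈ K, Odd (orderOf d₁) → m * d₁ * m⁻¹ ∈ K := by
    intro d₁ hd₁ hodd₁
    by_cases hdR : d₁ ∈ R
    · have h1 : d₁ = 1 := eq_one_of_odd_of_isPGroup c.hR2 hdR hodd₁
      rw [h1]
      simp
    have hdW : d₁ ∈ Subgroup.normalizer (W : Set G) := c.hKW hd₁
    have he₁ : u * d₁ * u⁻¹ * d₁ ∈ R := inv_mod_R c hNR huNW huW hu2 huK hd₁ hdR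
    obtain ⟨c₀, hc₀⟩ : ∃ c₀ : G, c₀ = d₁⁻¹ * (m * d₁ * m⁻¹) := ⟨_, rfl⟩
    have hc₀C : c₀ ∈ C := by rw [hc₀]; exact hmK d₁ hd₁
    have hd' : m * d₁ * m⁻¹ = d₁ * c₀ := by rw [hc₀]; group
    -- `e' ∈ Q`
    have he' : u * (m * d₁ * m⁻¹) * u⁻¹ * (m * d₁ * m⁻¹) ∈ Q := by
      have h2 : (m⁻¹ * u * m) * d₁ * (m⁻¹ * u * m)⁻¹ * d₁ ∈ K :=
        K.mul_mem (conj_mem_of_mem_normalizer huK' hd₁) hd₁
      have h3 : ∀ w ∈ W, ((m⁻¹ * u * m) * d₁ * (m⁻¹ * u * m)⁻¹ * d₁) * w *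
          ((m⁻¹ * u * m) * d₁ * (m⁻¹ * u * m)⁻¹ * d₁)⁻¹ = w := by
        intro w hw
        have hw1 : d₁ * w * d₁⁻¹ ∈ W := conj_mem_of_mem_normalizer hdW hw
        have hw2 : u⁻¹ * (d₁ * w * d₁⁻¹) * u ∈ W := conj_inv_mem_of_mem_normalizer huNW hw1
        have hw3 : d₁ * (u⁻¹ * (d₁ * w * d₁⁻¹) * u) * d₁⁻¹ ∈ W :=
          conj_mem_of_mem_normalizer hdW hw2
        have hw4 : u * (d₁ * (u⁻¹ * (d₁ * w * d₁⁻¹) * u) * d₁⁻¹) * u⁻¹ ∈ W :=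
          conj_mem_of_mem_normalizer huNW hw3
        have he : u * (d₁ * (u⁻¹ * (d₁ * w * d₁⁻¹) * u) * d₁⁻¹) * u⁻¹ = w := by
          have h := c.hWZ w hw _ he₁
          calc u * (d₁ * (u⁻¹ * (d₁ * w * d₁⁻¹) * u) * d₁⁻¹) * u⁻¹
              = (u * d₁ * u⁻¹ * d₁) * w * (u * d₁ * u⁻¹ * d₁)⁻¹ := by group
            _ = w * (u * d₁ * u⁻¹ * d₁) * (u * d₁ * u⁻¹ * d₁)⁻¹ := by rw [h]
            _ = w := by group
        calc ((m⁻¹ * u * m) * d₁ * (m⁻¹ * u * m)⁻¹ * d₁) * w *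
              ((m⁻¹ * u * m) * d₁ * (m⁻¹ * u * m)⁻¹ * d₁)⁻¹
            = m⁻¹ * (u * (m * (d₁ * (m⁻¹ * (u⁻¹ * (m * (d₁ * w * d₁⁻¹) * m⁻¹) * u) * m) *
                d₁⁻¹) * m⁻¹) * u⁻¹) * m := by group
          _ = m⁻¹ * (u * (m * (d₁ * (m⁻¹ * (u⁻¹ * (d₁ * w * d₁⁻¹) * u) * m) *
                d₁⁻¹) * m⁻¹) * u⁻¹) * m := by rw [hm1 _ hw1]
          _ = m⁻¹ * (u * (m * (d₁ * (u⁻¹ * (d₁ * w * d₁⁻¹) * u) *
                d₁⁻¹) * m⁻¹) * u⁻¹) * m := by rw [hm2 _ hw2]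
          _ = m⁻¹ * (u * (d₁ * (u⁻¹ * (d₁ * w * d₁⁻¹) * u) * d₁⁻¹) * u⁻¹) * m := by
              rw [hm1 _ hw3]
          _ = u * (d₁ * (u⁻¹ * (d₁ * w * d₁⁻¹) * u) * d₁⁻¹) * u⁻¹ := hm2 _ hw4
          _ = w := he
      have h4 : (m⁻¹ * u * m) * d₁ * (m⁻¹ * u * m)⁻¹ * d₁ ∈ R := c.mem_R_of_centralizes h2 h3
      have h5 := conj_mem_of_mem_normalizer hmQ (hRQ h4)
      have h6 : m * ((m⁻¹ * u * m) * d₁ * (m⁻¹ * u * m)⁻¹ * d₁) * m⁻¹ =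
          u * (m * d₁ * m⁻¹) * u⁻¹ * (m * d₁ * m⁻¹) := by group
      rwa [h6] at h5
    have hq₁ : u * c₀ * u⁻¹ * c₀⁻¹ ∈ Q := huC c₀ hc₀C
    have hg : d₁⁻¹ * c₀ * d₁ * c₀⁻¹ ∈ R := by
      have h1 : d₁⁻¹ * c₀ * d₁ * c₀⁻¹ = d₁⁻¹ * (c₀ * d₁ * c₀⁻¹) := by group
      have h2 : d₁⁻¹ * c₀ * d₁ * c₀⁻¹ ∈ K := by
        rw [h1]
        exact K.mul_mem (K.inv_mem hd₁) (conj_mem_of_mem_normalizer (hCK hc₀C) hd₁)
      apply c.mem_R_of_centralizes h2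
      intro w hw
      have hcw : ∀ w ∈ W, c₀ * w * c₀⁻¹ = w := mem_centralizer_iff_conj.mp (hCW hc₀C)
      have hw1 : c₀⁻¹ * w * c₀ = w := by
        have := hcw w hw
        calc c₀⁻¹ * w * c₀ = c₀⁻¹ * (c₀ * w * c₀⁻¹) * c₀ := by rw [this]
          _ = w := by group
      have hw2 : d₁ * w * d₁⁻¹ ∈ W := conj_mem_of_mem_normalizer hdW hw
      calc (d₁⁻¹ * c₀ * d₁ * c₀⁻¹) * w * (d₁⁻¹ * c₀ * d₁ * c₀⁻¹)⁻¹
          = d₁⁻¹ * (c₀ * (d₁ * (c₀⁻¹ * w * c₀) * d₁⁻¹) * c₀⁻¹) * d₁ := by group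
        _ = d₁⁻¹ * (c₀ * (d₁ * w * d₁⁻¹) * c₀⁻¹) * d₁ := by rw [hw1]
        _ = d₁⁻¹ * (d₁ * w * d₁⁻¹) * d₁ := by rw [hcw _ hw2]
        _ = w := by group
    have hsq : c₀ * c₀ ∈ Q := by
      have h1 : c₀ * c₀ = (d₁⁻¹ * c₀ * d₁ * c₀⁻¹)⁻¹ * (d₁⁻¹ * (u * c₀ * u⁻¹ * c₀⁻¹) * d₁)⁻¹ *
          (u * d₁ * u⁻¹ * d₁)⁻¹ * (u * (d₁ * c₀) * u⁻¹ * (d₁ * c₀)) := by group
      rw [h1]
      have hd₁Q : d₁ ∈ Subgroup.normalizer (Q : Set G) := hKQ hd₁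
      refine Q.mul_mem (Q.mul_mem (Q.mul_mem (Q.inv_mem (hRQ hg))
        (Q.inv_mem (conj_inv_mem_of_mem_normalizer hd₁Q hq₁))) (Q.inv_mem (hRQ he₁))) ?_
      rw [← hd']
      exact he'
    have hc₀Q : c₀ ∈ Q := by
      have h1 : c₀ ^ 2 ∈ Q := by rw [pow_two]; exact hsq
      have h2 : c₀ ^ (Q.relIndex C) ∈ Q := pow_relIndex_mem hQC hCQ hc₀C
      have hcop : Nat.Coprime 2 (Q.relIndex C) := Nat.coprime_two_left.mpr hodd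
      exact mem_of_pow_mem_coprime hcop h1 h2
    have hmem : m * d₁ * m⁻¹ ∈ K ⊔ Q := by
      rw [hd']
      exact Subgroup.mul_mem _ (Subgroup.mem_sup_left hd₁) (Subgroup.mem_sup_right hc₀Q)
    have hodd' : Odd (orderOf (m * d₁ * m⁻¹)) := by
      rw [Cfsg.Agent.Lib.Helper67.KS12.orderOf_conj_eq']
      exact hodd₁
    exact Cfsg.Agent.Lib.Helper67.KS12.mem_of_odd_of_mem_sup hQ2 hQK hmem hodd'
  intro k hk
  have hle : K ≤ K.comap (MulAut.conj m).toMonoidHom := by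
    conv_lhs => rw [← hgen]
    rw [Subgroup.closure_le]
    rintro g ⟨hg, hgo⟩
    exact hmain g hg hgo
  exact hle hk

end Cfsg.Agent.Lib.Helper54.KS12
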